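import Mathlib
import Cfsg.Agent.Lib.Helper80.MinSU2.Defs
import Cfsg.Agent.Lib.Helper92.MinSU.oU1t2
import Cfsg.Agent.Lib.Helper8.MinSU.U1i
import Cfsg.Agent.Lib.Helper1.MinSU2.tE2a

/-! # S2153 farm (helper80), piece [tE2] (helper79) -/

set_option autoImplicit false

namespace Cfsg.Agent.Lib.Helper79.MinSU2

open Matrix Cfsg.Agent.Lib.Helper13 Cfsg.Agent.Lib.Helper5 Cfsg.Agent.Lib.Helper57.RootSU
  Cfsg.Agent.Lib.Helper83.MinSU Cfsg.Agent.Lib.Helper80.MinSU2

variable {F : Type*} [Field F] [Fintype F] {m n : ℕ}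

namespace tE2

/-- the four elements of `F_4` -/
theorem enum4 (hF : Fintype.card F = 2 ^ 2) {om : F} (hom : om ^ 2 + om + 1 = 0) (c : F) :
    c = 0 ∨ c = 1 ∨ c = om ∨ c = om ^ 2 := by
  have h2 := Cfsg.Agent.Lib.Helper92.MinSU.O.two_eq_zero4 hF
  have h := FiniteField.pow_card c
  rw [hF] at h
  norm_num at h
  have h3 : c * ((c - 1) * ((c - om) * (c - om ^ 2))) = 0 := by
    linear_combination h + (c ^ 2 - c) * (om - 1) * hom - (c ^ 3 - c ^ 2) * hom
  rcases mul_eq_zero.1 h3 with h4 | h4
  · exact Or.inl h4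
  rcases mul_eq_zero.1 h4 with h5 | h5
  · exact Or.inr (Or.inl (sub_eq_zero.1 h5))
  rcases mul_eq_zero.1 h5 with h6 | h6
  · exact Or.inr (Or.inr (Or.inl (sub_eq_zero.1 h6)))
  · exact Or.inr (Or.inr (Or.inr (sub_eq_zero.1 h6)))

theorem cube_eq_one (hF : Fintype.card F = 2 ^ 2) {l : F} (hl : l ≠ 0) : l * l ^ 2 * 1 = 1 := by
  have h := FiniteField.pow_card_sub_one_eq_one l hl
  rw [hF] at h
  norm_num at h
  linear_combination h

/-- commuting involutions: the abstract statement in a non commutative group -/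
theorem five_nc {G : Type*} [Group G] (hF : Fintype.card F = 2 ^ 2) {om : F}
    (hom0 : om ≠ 0) (hom1 : om ≠ 1) (hom : om ^ 2 + om + 1 = 0)
    (t : Option F → G) (hcomm : ∀ i j, t i * t j = t j * t i) (hsq : ∀ i, t i * t i = 1)
    (hprod : t (some 0) = t none * t (some 1) * t (some om) * t (some (om ^ 2)))
    (K : Subgroup G) (h0 : ∀ i, t i ∉ K) (h : ∀ i, ∃ j, j ≠ i ∧ t i * t j ∈ K) : False := by
  classical
  have h2 := Cfsg.Agent.Lib.Helper92.MinSU.O.two_eq_zero4 hF
  have hc : ∀ a ∈ Set.range t, ∀ b ∈ Set.range t, a * b = b * a := by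
    rintro _ ⟨i, rfl⟩ _ ⟨j, rfl⟩
    exact hcomm i j
  letI : CommGroup (Subgroup.closure (Set.range t)) := Subgroup.closureCommGroupOfComm hc
  let t' : Option F → Subgroup.closure (Set.range t) :=
    fun i => ⟨t i, Subgroup.subset_closure ⟨i, rfl⟩⟩
  have hsq' : ∀ i, t' i * t' i = 1 := fun i => Subtype.ext (hsq i)
  have hY : t' (some 0) = t' none * t' (some 1) * t' (some om) * t' (some (om ^ 2)) :=
    Subtype.ext hprod
  have huniv : (Finset.univ : Finset F) = {0, 1, om, om ^ 2} := by
    symm
    rw [Finset.eq_univ_iff_forall]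
    intro c
    simp only [Finset.mem_insert, Finset.mem_singleton]
    exact enum4 hF hom c
  have hsq1 : om ^ 2 ≠ 1 := by
    intro h1
    apply hom0
    linear_combination hom - h1 - h2
  have hsqo : om ≠ om ^ 2 := by
    intro h1
    have : om * (om - 1) = 0 := by linear_combination -h1
    rcases mul_eq_zero.1 this with h3 | h3
    · exact hom0 h3
    · exact hom1 (sub_eq_zero.1 h3)
  have hP : ∏ i, t' i = 1 := by
    rw [Fintype.prod_option, huniv, Finset.prod_insert, Finset.prod_insert, Finset.prod_insert,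
      Finset.prod_singleton]
    · calc t' none * (t' (some 0) * (t' (some 1) * (t' (some om) * t' (some (om ^ 2)))))
          = t' (some 0) * (t' none * t' (some 1) * t' (some om) * t' (some (om ^ 2))) := by
            simp only [mul_assoc, mul_left_comm]
        _ = 1 := by rw [← hY, hsq']
    · simpa using hsqo
    · simp only [Finset.mem_insert, Finset.mem_singleton, not_or]
      exact ⟨fun h => hom1 h.symm, fun h => hsq1 h.symm⟩
    · simp only [Finset.mem_insert, Finset.mem_singleton, not_or]
      exact ⟨zero_ne_one, fun h => hom0 h.symm, fun h => (pow_ne_zero 2 hom0) h.symm⟩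
  have hcard : Fintype.card (Option F) = 5 := by
    rw [Fintype.card_option, hF]; norm_num
  exact Cfsg.Agent.Lib.Helper1.MinSU2.five_abs hcard t' hsq' hP
    (K.subgroupOf (Subgroup.closure (Set.range t)))
    (fun i hi => h0 i (Subgroup.mem_subgroupOf.1 hi))
    (fun i => by
      obtain ⟨j, hj, hjK⟩ := h i
      exact ⟨j, hj, Subgroup.mem_subgroupOf.2 hjK⟩)

end tE2

/-- [tE2] every totally isotropic line through a bad point meets `RS` -/
theorem line_rs (hF : Fintype.card F = 2 ^ 2) (K : Subgroup (Cfsg.SU n F 2))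
    (hbad : ∀ v y : Fin n → F, v ≠ 0 → Cfsg.hermForm n F 2 v v = 0 → ut hF v 1 ∉ K →
      Cfsg.hermForm n F 2 y y = 0 → Cfsg.hermForm n F 2 y v = 0 → (¬ ∃ c : F, y = c • v) →
      ∃ c : F, ut hF (y + c • v) 1 ∈ K ∨ ut hF v 1 * ut hF (y + c • v) 1 ∈ K)
    (x y : Fin n → F) (hx : x ≠ 0) (hxx : Cfsg.hermForm n F 2 x x = 0) (hxK : ut hF x 1 ∉ K)
    (hyy : Cfsg.hermForm n F 2 y y = 0) (hyx : Cfsg.hermForm n F 2 y x = 0)
    (hy : ¬ ∃ c : F, y = c • x) :
    ∃ c : F, y + c • x ∈ RS hF K := by
  classical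
  by_contra hcon
  push Not at hcon
  have h2 := Cfsg.Agent.Lib.Helper92.MinSU.O.two_eq_zero4 hF
  have hs := Cfsg.Agent.Lib.Helper92.MinSU.O.one_skew hF
  obtain ⟨om, hom0, hom1, hom⟩ := Cfsg.Agent.Lib.Helper92.MinSU.O.exists_omega hF
  have hxy : Cfsg.hermForm n F 2 x y = 0 := hermForm_eq_zero_comm hF hyx
  -- the plane
  let P : F → F → (Fin n → F) := fun a b => a • y + b • x
  have hPP : ∀ a b a' b', Cfsg.hermForm n F 2 (P a b) (P a' b') = 0 := by
    intro a b a' b'
    simp only [P, hermForm_add_left, hermForm_add_right hF, hermForm_smul_left, hermForm_smul_right,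
      hyy, hxx, hyx, hxy, add_zero, mul_zero]
  have hPinj : ∀ a b, P a b = 0 → a = 0 ∧ b = 0 := by
    intro a b h
    have ha : a = 0 := by
      by_contra ha
      apply hy
      refine ⟨-(a⁻¹ * b), ?_⟩
      have h1 : a⁻¹ • (a • y + b • x) = 0 := by
        have : a • y + b • x = 0 := h
        rw [this, smul_zero]
      rw [smul_add, smul_smul, smul_smul, inv_mul_cancel₀ ha, one_smul] at h1
      rw [neg_smul]
      exact eq_neg_of_add_eq_zero_left h1
    refine ⟨ha, ?_⟩
    have h1 : a • y + b • x = 0 := h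
    rw [ha, zero_smul, zero_add] at h1
    rcases smul_eq_zero.1 h1 with h3 | h3
    · exact h3
    · exact absurd h3 hx
  have hPadd : ∀ a b a' b' c, P a b + c • P a' b' = P (a + c * a') (b + c * b') := by
    intro a b a' b' c
    simp only [P]
    module
  -- coordinates of the five points
  let ca : Option F → F := fun i => i.elim 0 (fun _ => 1)
  let cb : Option F → F := fun i => i.elim 1 (fun c => c)
  let p : Option F → (Fin n → F) := fun i => P (ca i) (cb i)
  let t : Option F → Cfsg.SU n F 2 := fun i => ut hF (p i) 1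
  have hp_none : p none = x := by simp [p, P, ca, cb]
  have hp_some : ∀ c, p (some c) = y + c • x := by intro c; simp [p, P, ca, cb]
  have hiso : ∀ i, Cfsg.hermForm n F 2 (p i) (p i) = 0 := fun i => hPP _ _ _ _
  have horth : ∀ i j, Cfsg.hermForm n F 2 (p i) (p j) = 0 := fun i j => hPP _ _ _ _
  have hne0 : ∀ i, p i ≠ 0 := by
    intro i h
    obtain ⟨h1, h3⟩ := hPinj _ _ h
    cases i with
    | none => exact one_ne_zero h3
    | some c => exact one_ne_zero h1
  -- every non zero vector of the plane is proportional to one of the five points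
  have hcover : ∀ a b, (a ≠ 0 ∨ b ≠ 0) → ∃ (k : Option F) (l : F), l ≠ 0 ∧ P a b = l • p k := by
    intro a b hab
    by_cases ha : a = 0
    · refine ⟨none, b, ?_, ?_⟩
      · rcases hab with h | h
        · exact absurd ha h
        · exact h
      · rw [hp_none]; simp [P, ha]
    · refine ⟨some (a⁻¹ * b), a, ha, ?_⟩
      rw [hp_some, smul_add, smul_smul, ← mul_assoc, mul_inv_cancel₀ ha, one_mul]
  have hnonprop : ∀ i j, j ≠ i → ¬ ∃ c : F, p j = c • p i := by
    rintro i j hji ⟨c, hc⟩
    have h1 : P (ca j + (-c) * ca i) (cb j + (-c) * cb i) = 0 := by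
      rw [← hPadd]
      change p j + (-c) • p i = 0
      rw [hc, neg_smul, add_neg_cancel]
    obtain ⟨h3, h4⟩ := hPinj _ _ h1
    cases i with
    | none =>
      cases j with
      | none => exact hji rfl
      | some d =>
        simp only [ca, Option.elim] at h3
        apply one_ne_zero (α := F)
        linear_combination h3
    | some e =>
      cases j with
      | none =>
        simp only [ca, cb, Option.elim] at h3 h4
        apply one_ne_zero (α := F)
        linear_combination h4 - e * h3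
      | some d =>
        simp only [ca, cb, Option.elim] at h3 h4
        apply hji
        congr 1
        linear_combination h4 - e * h3
  have h0 : ∀ i, t i ∉ K := by
    intro i
    cases i with
    | none =>
      change ut hF (p none) 1 ∉ K
      rw [hp_none]; exact hxK
    | some c =>
      change ut hF (p (some c)) 1 ∉ K
      intro hK
      apply hcon c
      rw [← hp_some]
      refine ⟨hiso _, fun c' hc' => ?_⟩
      rcases Cfsg.Agent.Lib.Helper92.MinSU.O.skew_cases hF hc' with rfl | rfl
      · rw [ut_zero hF (hiso _)]; exact K.one_mem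
      · exact hK
  have hcomm : ∀ i j, t i * t j = t j * t i := fun i j =>
    ut_commute hF (hiso i) (hiso j) hs hs (horth i j)
  have hsq : ∀ i, t i * t i = 1 := by
    intro i
    change ut hF (p i) 1 * ut hF (p i) 1 = 1
    rw [ut_mul hF (hiso i) hs hs]
    have : (1 : F) + 1 = 0 := by linear_combination h2
    rw [this, ut_zero hF (hiso i)]
  have hprod : t (some 0) = t none * t (some 1) * t (some om) * t (some (om ^ 2)) := by
    change ut hF (p (some 0)) 1 = ut hF (p none) 1 * ut hF (p (some 1)) 1 * ut hF (p (some om)) 1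
      * ut hF (p (some (om ^ 2))) 1
    rw [hp_none, hp_some, hp_some, hp_some, hp_some, zero_smul, add_zero, one_smul]
    exact Cfsg.Agent.Lib.Helper92.MinSU.O.ut_five hF y x om hom hyy hyx hxx
  have hpartner : ∀ i, ∃ j, j ≠ i ∧ t i * t j ∈ K := by
    intro i
    obtain ⟨j, hj⟩ : ∃ j : Option F, j ≠ i := by
      cases i with
      | none => exact ⟨some 0, by simp⟩
      | some c => exact ⟨none, by simp⟩
    obtain ⟨c, hc⟩ := hbad (p i) (p j) (hne0 i) (hiso i) (h0 i) (hiso j) (horth j i)
      (hnonprop i j hj)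
    have hPc : p j + c • p i = P (ca j + c * ca i) (cb j + c * cb i) := hPadd _ _ _ _ _
    have hne : (ca j + c * ca i ≠ 0 ∨ cb j + c * cb i ≠ 0) := by
      by_contra hh
      push Not at hh
      apply hnonprop i j hj
      refine ⟨-c, ?_⟩
      have : p j + c • p i = 0 := by
        rw [hPc, hh.1, hh.2]; simp [P]
      rw [neg_smul]
      exact eq_neg_of_add_eq_zero_left this
    obtain ⟨k, l, hl, hkl⟩ := hcover _ _ hne
    have hut : ut hF (p j + c • p i) 1 = t k := by
      rw [hPc, hkl, Cfsg.Agent.Lib.Helper8.MinSU.ut_smul hF (hiso k) l hs, tE2.cube_eq_one hF hl]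
    have hki : k ≠ i := by
      rintro rfl
      apply hnonprop k j hj
      refine ⟨l - c, ?_⟩
      rw [sub_smul, ← hkl, ← hPc]
      abel
    rw [hut] at hc
    rcases hc with hc | hc
    · exact absurd hc (h0 k)
    · exact ⟨k, hki, hc⟩
  exact tE2.five_nc hF hom0 hom1 hom t hcomm hsq hprod K h0 hpartner

end Cfsg.Agent.Lib.Helper79.MinSU2
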